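import Mathlib
import Cfsg.Agent.Lib.Helper73.HA.Defs

/-!
# Project HA, packages S2538OF and S2535OF (helper62 for helper73)

* `s2538_of`: the statement of S2538 from Theorem A (`ThmAll`), `LemInter` and `LemBridge`.
* `s2535_of`: the statement of S2535 from S2538 and the two conjugacy statements.
-/

set_option autoImplicit false

namespace Cfsg.Agent.Lib.Helper62.HA

open Equiv
open Cfsg.Agent.Lib.Helper73.HA

/-- **Package S2538OF.** -/
theorem s2538_of (hA : ThmAll.{0}) (hI : LemInter.{0}) (hB : LemBridge.{0}) : S2538Stmt := by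
  intro n π M
  constructor
  · intro hM
    have h1 := (hB (Perm (Fin n)) π (alternatingGroup (Fin n)) M).mp hM
    obtain ⟨M₀, hM₀, hinf⟩ := hA (Fin n) π _ h1
    refine ⟨M₀, hM₀, ?_⟩
    ext x
    rw [Subgroup.mem_subgroupOf]
    constructor
    · intro hx
      have h2 : (x : Perm (Fin n)) ∈ M.map (alternatingGroup (Fin n)).subtype :=
        Subgroup.mem_map_of_mem _ hx
      rw [← hinf] at h2
      exact h2.1
    · intro hx
      have h2 : (x : Perm (Fin n)) ∈ M₀ ⊓ alternatingGroup (Fin n) := ⟨hx, x.2⟩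
      rw [hinf, Subgroup.mem_map] at h2
      obtain ⟨y, hy, hyx⟩ := h2
      have h3 : y = x := Subtype.ext hyx
      rw [← h3]
      exact hy
  · rintro ⟨M₀, hM₀, rfl⟩
    exact hI (Perm (Fin n)) π M₀ (alternatingGroup (Fin n)) inferInstance hM₀

/-- **Package S2535OF.** -/
theorem s2535_of (h38 : S2538Stmt) (hCS : ConjS.{0}) (hCA : ConjA.{0}) : S2535Stmt := by
  intro n π
  refine ⟨⟨fun hE => ⟨hE, fun H K hH hK => hCS (Fin n) π H K hH hK⟩, fun hC => hC.1⟩,
    ⟨?_, ?_⟩,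
    ⟨fun hE => ⟨hE, fun H K hH hK => hCA (Fin n) π H K hH hK⟩, fun hC => hC.1⟩⟩
  · rintro ⟨M₀, hM₀⟩
    exact ⟨M₀.subgroupOf (alternatingGroup (Fin n)), (h38 n π _).mpr ⟨M₀, hM₀, rfl⟩⟩
  · rintro ⟨M, hM⟩
    obtain ⟨M₀, hM₀, _⟩ := (h38 n π M).mp hM
    exact ⟨M₀, hM₀⟩

end Cfsg.Agent.Lib.Helper62.HA
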