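import Mathlib
import Cfsg.Agent.Lib.Helper73.HA.Defs

/-!
# Project HA (S2538, S2535), package FIX (helper62 for helper73)

If `K` fixes `ω` and `M₁` is a Hall `π`-subgroup (`2 ∈ π`) of the symmetric group on the points
different from `ω` with `M₁ ⊓ Alt = K.comap ofSubtype`, then `M₁.map ofSubtype` is a
`π`-overgroup of `K` with an odd element.
-/

set_option autoImplicit false

namespace Cfsg.Agent.Lib.Helper62.HA

open Equiv

universe u

/-- A Hall `π`-subgroup (`2 ∈ π`) of `Perm α` (`α` nontrivial) contains an odd permutation. -/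
theorem exists_odd_of_hall {α : Type u} [Fintype α] [DecidableEq α] [Nontrivial α] {π : Set ℕ}
    {M : Subgroup (Perm α)} (hM : Cfsg.IsPiHall π M) (h2 : 2 ∈ π) :
    ∃ m ∈ M, Perm.sign m ≠ 1 := by
  by_contra hcon
  push Not at hcon
  have hle : M ≤ alternatingGroup α := by
    intro m hm
    rw [Equiv.Perm.mem_alternatingGroup]
    exact hcon m hm
  have h1 := Subgroup.index_dvd_of_le hle
  rw [alternatingGroup.index_eq_two] at h1
  exact hM.2 2 Nat.prime_two h2 h1

/-- **Package FIX.** -/
theorem lemFix : Cfsg.Agent.Lib.Helper73.HA.LemFix.{u} := by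
  intro Ω _ _ π K ω M₁ h2 hn hfix hM₁ hinf
  have hc : Fintype.card {x // x ≠ ω} = Fintype.card Ω - 1 := Set.card_ne_eq ω
  have hnt' : Nontrivial {x // x ≠ ω} := Fintype.one_lt_card_iff_nontrivial.mp (by omega)
  refine ⟨M₁.map (Perm.ofSubtype : Perm {x // x ≠ ω} →* Perm Ω), ?_, ?_, ?_⟩
  · -- `K ≤ M`
    intro k hk
    have hω : k ω = ω := hfix k hk
    have h₁ : ∀ x : Ω, k x ≠ ω ↔ x ≠ ω := by
      intro x
      constructor
      · intro hx hxω
        exact hx (by rw [hxω, hω])
      · intro hx hxω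
        apply hx
        apply k.injective
        rw [hxω, hω]
    have h₂ : ∀ x : Ω, k x ≠ x → x ≠ ω := by
      intro x hx hxω
      exact hx (by rw [hxω, hω])
    have heq : Equiv.Perm.ofSubtype (k.subtypePerm h₁) = k :=
      Equiv.Perm.ofSubtype_subtypePerm h₁ h₂
    have hmem : k.subtypePerm h₁ ∈
        K.comap (Perm.ofSubtype : Perm {x // x ≠ ω} →* Perm Ω) := by
      rw [Subgroup.mem_comap, heq]
      exact hk
    rw [← hinf] at hmem
    rw [Subgroup.mem_map]
    exact ⟨k.subtypePerm h₁, hmem.1, heq⟩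
  · -- `M` is a `π`-group
    intro p hp hdvd
    rw [Subgroup.card_map_of_injective Equiv.Perm.ofSubtype_injective] at hdvd
    exact hM₁.1 p hp hdvd
  · -- `M` has an odd element
    intro hle
    obtain ⟨m, hm, hsign⟩ := exists_odd_of_hall hM₁ h2
    have h1 : (Perm.ofSubtype : Perm {x // x ≠ ω} →* Perm Ω) m ∈ alternatingGroup Ω :=
      hle (Subgroup.mem_map_of_mem _ hm)
    rw [Equiv.Perm.mem_alternatingGroup, Equiv.Perm.sign_ofSubtype] at h1
    exact hsign h1

end Cfsg.Agent.Lib.Helper62.HA
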