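import Mathlib
import Cfsg.Agent.Lib.Helper73.HA.Defs
import Cfsg.Agent.Lib.Helper62.HT.PointStab

/-!
# Project HA (S2538, S2535), package PT (helper62 for helper73)

The point stabilizer of a Hall `π`-subgroup `K` of `Alt(Ω)` which fixes the point `ω` or is
transitive is a Hall `π`-subgroup of the alternating group on the remaining points.

Orders: `|Alt(Ω)| = n |Alt(Ω ∖ {ω})|`; if `K` fixes `ω` then `|K'| = |K|`, if `K` is transitive
then `|K| = n |K'|`; in both cases the index of `K'` divides the index of `K`.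
-/

set_option autoImplicit false

namespace Cfsg.Agent.Lib.Helper62.HA

open Equiv

universe u

/-- `|H| * |K : H| = |K|` for `H ≤ K`. -/
theorem card_mul_relIndex_of_le {G : Type*} [Group G] {H K : Subgroup G} (h : H ≤ K) :
    Nat.card H * H.relIndex K = Nat.card K := by
  have h1 := Subgroup.relIndex_mul_relIndex ⊥ H K bot_le h
  rwa [Subgroup.relIndex_bot_left, Subgroup.relIndex_bot_left] at h1

/-- `|Alt(Ω)| = n |Alt(Ω ∖ {ω})|` for `n ≥ 3`. -/
theorem card_alt_eq_mul_card_alt_compl {Ω : Type u} [Fintype Ω] [DecidableEq Ω] (ω : Ω)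
    (hn : 3 ≤ Fintype.card Ω) :
    Nat.card (alternatingGroup Ω) =
      Fintype.card Ω * Nat.card (alternatingGroup {x // x ≠ ω}) := by
  have hc : Fintype.card {x // x ≠ ω} = Fintype.card Ω - 1 := Set.card_ne_eq ω
  have hnt : Nontrivial Ω := Fintype.one_lt_card_iff_nontrivial.mp (by omega)
  have hnt' : Nontrivial {x // x ≠ ω} := Fintype.one_lt_card_iff_nontrivial.mp (by omega)
  have e1 : 2 * Nat.card (alternatingGroup Ω) = (Fintype.card Ω).factorial := by
    rw [two_mul_nat_card_alternatingGroup, Nat.card_eq_fintype_card, Fintype.card_perm]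
  have e2 : 2 * Nat.card (alternatingGroup {x // x ≠ ω}) = (Fintype.card Ω - 1).factorial := by
    rw [two_mul_nat_card_alternatingGroup, Nat.card_eq_fintype_card, Fintype.card_perm, hc]
  have hfac : (Fintype.card Ω).factorial =
      Fintype.card Ω * (Fintype.card Ω - 1).factorial := by
    obtain ⟨m, hm⟩ := Nat.exists_eq_succ_of_ne_zero (by omega : Fintype.card Ω ≠ 0)
    rw [hm, Nat.factorial_succ]
    rfl
  have h3 : 2 * Nat.card (alternatingGroup Ω) =
      2 * (Fintype.card Ω * Nat.card (alternatingGroup {x // x ≠ ω})) := by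
    rw [e1, hfac, ← e2]
    ring
  exact Nat.eq_of_mul_eq_mul_left (by norm_num) h3

/-- **Package PT.** -/
theorem lemPt : Cfsg.Agent.Lib.Helper73.HA.LemPt.{u} := by
  intro Ω _ _ π K ω hK hn hcase
  obtain ⟨hKA, hKπ, hKidx⟩ := hK
  obtain ⟨K', hK'def⟩ : ∃ K' : Subgroup (Perm {x // x ≠ ω}),
      K' = K.comap (Perm.ofSubtype : Perm {x // x ≠ ω} →* Perm Ω) := ⟨_, rfl⟩
  rw [← hK'def]
  have hK'A : K' ≤ alternatingGroup {x // x ≠ ω} := by
    intro h' hh'
    rw [hK'def, Subgroup.mem_comap] at hh'
    have h1 := hKA hh'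
    rw [Equiv.Perm.mem_alternatingGroup] at h1 ⊢
    rwa [Equiv.Perm.sign_ofSubtype] at h1
  have hcardK' : Nat.card K' = Nat.card (MulAction.stabilizer K ω) := by
    rw [hK'def]
    exact Cfsg.Agent.Lib.Helper62.HT.card_comap_ofSubtype K ω
  have e1 := card_mul_relIndex_of_le hKA
  have e2 := card_mul_relIndex_of_le hK'A
  have hAA' := card_alt_eq_mul_card_alt_compl ω hn
  have hKpos : 0 < Nat.card K := Nat.card_pos
  have hK'pos : 0 < Nat.card K' := Nat.card_pos
  have hnpos : 0 < Fintype.card Ω := by omega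
  refine ⟨hK'A, ?_, ?_⟩
  · intro p hp hdvd
    apply hKπ p hp
    rw [hcardK'] at hdvd
    exact hdvd.trans (Subgroup.card_subgroup_dvd_card _)
  · intro p hp hpπ hdvd
    apply hKidx p hp hpπ
    refine hdvd.trans ?_
    rcases hcase with hfix | htr
    · -- `K` fixes `ω`
      have hstab : MulAction.stabilizer K ω = ⊤ := by
        rw [eq_top_iff]
        intro k _
        rw [MulAction.mem_stabilizer_iff]
        exact hfix k.1 k.2
      have hk : Nat.card K' = Nat.card K := by
        rw [hcardK', hstab, Subgroup.card_top]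
      have h3 : Nat.card K * K.relIndex (alternatingGroup Ω) =
          Nat.card K * (Fintype.card Ω * K'.relIndex (alternatingGroup {x // x ≠ ω})) := by
        rw [e1, hAA', ← e2, hk]
        ring
      rw [Nat.eq_of_mul_eq_mul_left hKpos h3]
      exact dvd_mul_left _ _
    · -- `K` is transitive
      have hk : Nat.card K = Nat.card K' * Fintype.card Ω := by
        rw [hcardK']
        exact Cfsg.Agent.Lib.Helper62.HT.card_eq_card_mul_index_stabilizer htr ω
      have h3 : Nat.card K * K.relIndex (alternatingGroup Ω) =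
          Nat.card K * K'.relIndex (alternatingGroup {x // x ≠ ω}) := by
        rw [e1, hAA', ← e2, hk]
        ring
      rw [Nat.eq_of_mul_eq_mul_left hKpos h3]

end Cfsg.Agent.Lib.Helper62.HA
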