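import Mathlib
import Cfsg.Agent.Lib.Helper73.HA.Defs

/-!
# Project HA (S2538, S2535), package TWO (helper62 for helper73)

If `2` is the only prime of `π` up to the degree `n ≥ 2`, then a Hall `π`-subgroup `K` of
`Alt(Ω)` is a 2-group, and a Sylow 2-subgroup of `Sym(Ω)` containing it is a `π`-overgroup
with an odd element.
-/

set_option autoImplicit false

namespace Cfsg.Agent.Lib.Helper62.HA

open Equiv

universe u

/-- **Package TWO.** -/
theorem lemTwo : Cfsg.Agent.Lib.Helper73.HA.LemTwo.{u} := by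
  intro Ω _ _ π K hK h2 hn honly
  obtain ⟨hKA, hKπ, hKidx⟩ := hK
  have hnt : Nontrivial Ω := Fintype.one_lt_card_iff_nontrivial.mp (by omega)
  have : Fact (Nat.Prime 2) := ⟨Nat.prime_two⟩
  -- `K` is a 2-group
  have hK2 : IsPGroup 2 K := by
    have hcard : Nat.card K = 2 ^ (Nat.card K).primeFactorsList.length := by
      apply Nat.eq_prime_pow_of_unique_prime_dvd Nat.card_pos.ne'
      intro d hd hdvd
      apply honly d hd (hKπ d hd hdvd)
      have h1 : d ∣ Nat.card (Perm Ω) := hdvd.trans (Subgroup.card_subgroup_dvd_card K)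
      rw [Nat.card_eq_fintype_card, Fintype.card_perm] at h1
      exact (Nat.Prime.dvd_factorial hd).mp h1
    exact IsPGroup.of_card hcard
  obtain ⟨Q, hKQ⟩ := hK2.exists_le_sylow
  refine ⟨(Q : Subgroup (Perm Ω)), hKQ, ?_, ?_⟩
  · intro p hp hdvd
    obtain ⟨m, hm⟩ := IsPGroup.iff_card.mp Q.isPGroup'
    rw [hm] at hdvd
    have h1 := (Nat.prime_dvd_prime_iff_eq hp Nat.prime_two).mp (hp.dvd_of_dvd_pow hdvd)
    rw [h1]
    exact h2
  · intro hle
    have h1 := Subgroup.index_dvd_of_le hle
    rw [alternatingGroup.index_eq_two] at h1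
    exact Q.not_dvd_index h1

end Cfsg.Agent.Lib.Helper62.HA
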